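import Cfsg.Agent.Lib.Helper51.OE.F1
import Cfsg.Agent.Lib.Helper57.OE.Base
import Cfsg.Agent.Lib.Helper57.OE.G0
import Cfsg.Agent.Lib.Helper98.OE.G4

set_option autoImplicit false

/-! # Wave G, piece G10 (helper30): the orthogonal sum of two isometric even-dimensional
non-degenerate subspaces is of plus type -/

namespace Cfsg.Agent.Lib.Helper30.OE

open Cfsg Cfsg.Geo Matrix Cfsg.Agent.Lib.Helper13.Asch Cfsg.Agent.Lib.Helper90.Sp
open Cfsg.Agent.Lib.Helper51.OE (perp)
open scoped Kronecker MatrixGroups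

variable {ι : Type} [Fintype ι] [DecidableEq ι] {F : Type*} [Field F] {Q : (ι → F) → F}

/-- the abstract core of G10: an anti-isometry of `A` onto `B ≤ A^⊥` gives plus type -/
theorem plus_of_anti_pair (hQ : IsNondegenerateQuadraticForm Q)
    {A B : Submodule F (ι → F)} (hnd : IsNondegenerateOn (QuadraticMap.polar Q) A)
    (hAB : B ≤ perp hQ A) (θ : A ≃ₗ[F] B)
    (hθ : ∀ a : A, Q ((θ a : B) : ι → F) = - Q (a : ι → F)) :
    IsPlusTypeOn Q (A ⊔ B) := by
  have hdisj : Disjoint A B :=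
    (Cfsg.Agent.Lib.Helper57.OE.perp_nondeg hQ A hnd).2.disjoint.mono_right hAB
  let φ : A →ₗ[F] (ι → F) := A.subtype + B.subtype ∘ₗ θ.toLinearMap
  have hφ : ∀ a : A, φ a = (a : ι → F) + ((θ a : B) : ι → F) := fun a => rfl
  have hinj : Function.Injective φ := by
    rw [← LinearMap.ker_eq_bot, LinearMap.ker_eq_bot']
    intro a ha
    rw [hφ] at ha
    have h1 : (a : ι → F) = -((θ a : B) : ι → F) := eq_neg_of_add_eq_zero_left ha
    have h2 : (a : ι → F) ∈ B := by rw [h1]; exact B.neg_mem (θ a).2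
    have h3 : (a : ι → F) = 0 := (Submodule.disjoint_def.mp hdisj) _ a.2 h2
    exact Subtype.ext h3
  refine ⟨LinearMap.range φ, ?_, ?_, ?_⟩
  · rintro _ ⟨a, rfl⟩
    rw [hφ]
    exact Submodule.add_mem _ (Submodule.mem_sup_left a.2) (Submodule.mem_sup_right (θ a).2)
  · rintro _ ⟨a, rfl⟩
    rw [hφ, Cfsg.Agent.Lib.Helper51.OE.Q_add Q, hθ,
      (Cfsg.Agent.Lib.Helper51.OE.mem_perp hQ).mp (hAB (θ a).2) _ a.2]
    ring
  · rw [LinearMap.finrank_range_of_inj hinj]
    have h1 := Submodule.finrank_sup_add_finrank_inf_eq A B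
    rw [hdisj.eq_bot, finrank_bot, add_zero, ← θ.finrank_eq] at h1
    omega

/-- G10 -/
theorem plus_of_isometric_pair [Fintype F] (hQ : IsNondegenerateQuadraticForm Q)
    {A B : Submodule F (ι → F)} (hnd : IsNondegenerateOn (QuadraticMap.polar Q) A)
    (hAB : B ≤ perp hQ A) (hiso : AreIsometricFor Q A B) (hev : Even (Module.finrank F A)) :
    IsPlusTypeOn Q (A ⊔ B) := by
  obtain ⟨e, he⟩ := hiso
  obtain ⟨J, hJ⟩ := Cfsg.Agent.Lib.Helper98.OE.neg_self_isometry hQ A hnd hev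
  exact plus_of_anti_pair hQ hnd hAB (J.trans e) (fun a => by
    rw [LinearEquiv.trans_apply, he, hJ])

end Cfsg.Agent.Lib.Helper30.OE
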