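import Cfsg.Agent.Lib.Helper30.OE.G10
import Cfsg.Agent.Lib.Helper55.Asch.DecCore
import Cfsg.Agent.Lib.Helper98.OE.G1
import Cfsg.Agent.Lib.Helper8.OE.G8

set_option autoImplicit false

/-! # Wave G, piece G11 (helper30): the three blocks of an orthogonal decomposition of a plus type
space into isometric even-dimensional blocks are of plus type -/

namespace Cfsg.Agent.Lib.Helper30.OE

open Cfsg Cfsg.Geo Matrix Cfsg.Agent.Lib.Helper13.Asch Cfsg.Agent.Lib.Helper90.Sp
open Cfsg.Agent.Lib.Helper51.OE (perp)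
open scoped Kronecker MatrixGroups

variable {ι : Type} [Fintype ι] [DecidableEq ι] {F : Type*} [Field F] {Q : (ι → F) → F}

/-- the orthogonal sum of two non-degenerate subspaces is non-degenerate -/
theorem nondeg_sup (hQ : IsNondegenerateQuadraticForm Q) {A B : Submodule F (ι → F)}
    (hA : IsNondegenerateOn (QuadraticMap.polar Q) A)
    (hB : IsNondegenerateOn (QuadraticMap.polar Q) B)
    (hAB : AreOrthogonalFor (QuadraticMap.polar Q) A B) :
    IsNondegenerateOn (QuadraticMap.polar Q) (A ⊔ B) := by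
  have key : ∀ w ∈ A ⊔ B, w ≠ 0 → ∃ x ∈ A ⊔ B, QuadraticMap.polar Q x w ≠ 0 := by
    intro w hw hw0
    obtain ⟨a, ha, b, hb, rfl⟩ := Submodule.mem_sup.mp hw
    by_cases ha0 : a = 0
    · have hb0 : b ≠ 0 := by
        rintro rfl
        exact hw0 (by rw [ha0, add_zero])
      obtain ⟨x, hx, hxb⟩ := (hB b hb hb0).1
      refine ⟨x, Submodule.mem_sup_right hx, ?_⟩
      rw [hQ.polar_bilinear.add_right, QuadraticMap.polar_comm Q x a, hAB a ha x hx, zero_add]
      exact hxb
    · obtain ⟨x, hx, hxa⟩ := (hA a ha ha0).1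
      refine ⟨x, Submodule.mem_sup_left hx, ?_⟩
      rw [hQ.polar_bilinear.add_right, hAB x hx b hb, add_zero]
      exact hxa
  intro w hw hw0
  obtain ⟨x, hx, hxw⟩ := key w hw hw0
  exact ⟨⟨x, hx, hxw⟩, ⟨x, hx, by rwa [QuadraticMap.polar_comm]⟩⟩

/-- G11 -/
theorem plus_block_of_three [Fintype F] (hQ : IsNondegenerateQuadraticForm Q)
    (hplus : IsPlusTypeOn Q ⊤) {k : ℕ} (hk : Even k) (D : Fin 3 → Submodule F (ι → F))
    (hD : IsOrthogonalMDecomposition Q k D) (i : Fin 3) : IsPlusTypeOn Q (D i) := by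
  apply Cfsg.Agent.Lib.Helper8.OE.plus_of_isometric (hD.isometric 2 i)
  have h01 : AreOrthogonalFor (QuadraticMap.polar Q) (D 0) (D 1) :=
    hD.decomp.orthogonal 0 1 (by decide)
  have hB : D 1 ≤ perp hQ (D 0) := fun x hx w hw => h01 w hw x hx
  have hfr : ∀ j, Module.finrank F (D j) = k := hD.decomp.decomp.finrank_eq
  have hp : IsPlusTypeOn Q (D 0 ⊔ D 1) :=
    plus_of_isometric_pair hQ (hD.decomp.nondegenerate 0) hB (hD.isometric 0 1)
      (by rw [hfr]; exact hk)
  have hnd : IsNondegenerateOn (QuadraticMap.polar Q) (D 0 ⊔ D 1) :=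
    nondeg_sup hQ (hD.decomp.nondegenerate 0) (hD.decomp.nondegenerate 1) h01
  have hdisj : Disjoint (D 0) (D 1) :=
    hD.decomp.decomp.indep.pairwiseDisjoint (by decide)
  have hsup : Module.finrank F (D 0 ⊔ D 1 : Submodule F (ι → F)) = 2 * k := by
    have h1 := Submodule.finrank_sup_add_finrank_inf_eq (D 0) (D 1)
    rw [hdisj.eq_bot, finrank_bot, add_zero, hfr, hfr] at h1
    omega
  have hcard : 3 * k = Fintype.card ι :=
    Cfsg.Agent.Lib.Helper55.Asch.card_of_decomp D hD.decomp.decomp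
  have hle : D 2 ≤ perp hQ (D 0 ⊔ D 1) := by
    rw [Cfsg.Agent.Lib.Helper51.OE.perp_sup]
    exact le_inf (fun x hx w hw => hD.decomp.orthogonal 0 2 (by decide) w hw x hx)
      (fun x hx w hw => hD.decomp.orthogonal 1 2 (by decide) w hw x hx)
  have heq : D 2 = perp hQ (D 0 ⊔ D 1) := by
    apply Submodule.eq_of_le_of_finrank_le hle
    have h2 := Cfsg.Agent.Lib.Helper51.OE.finrank_perp hQ (D 0 ⊔ D 1)
    rw [hfr]
    omega
  rw [heq]
  exact Cfsg.Agent.Lib.Helper98.OE.plus_perp hQ hplus _ hnd hp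

end Cfsg.Agent.Lib.Helper30.OE
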